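import Mathlib
/-! The Weyl groups of type `B₆` and `D₆` in coordinates -/
set_option autoImplicit false
namespace H24.T12
open Equiv Subgroup Finset

abbrev I := Fin 6
abbrev Z2 := ZMod 2

/-- signed permutations of six blocks -/
@[ext] structure B where
  f : I → Z2
  s : Perm I

instance : DecidableEq B := fun a b => decidable_of_iff (∀ i, a.f i = b.f i ∧ a.s i = b.s i)
  ⟨fun h => B.ext (funext fun i => (h i).1) (Equiv.ext fun i => (h i).2), fun h _ => h ▸ ⟨rfl, rfl⟩⟩

instance : Mul B := ⟨fun a b => ⟨fun i => b.f i + a.f (b.s i), a.s * b.s⟩⟩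
instance : One B := ⟨⟨fun _ => 0, 1⟩⟩
instance : Inv B := ⟨fun a => ⟨fun i => a.f (a.s⁻¹ i), a.s⁻¹⟩⟩
@[simp] theorem mul_f (a b : B) (i : I) : (a * b).f i = b.f i + a.f (b.s i) := rfl
@[simp] theorem mul_s (a b : B) : (a * b).s = a.s * b.s := rfl
@[simp] theorem one_f (i : I) : (1 : B).f i = 0 := rfl
@[simp] theorem one_s : (1 : B).s = 1 := rfl
@[simp] theorem inv_f (a : B) (i : I) : a⁻¹.f i = a.f (a.s⁻¹ i) := rfl
@[simp] theorem inv_s (a : B) : a⁻¹.s = a.s⁻¹ := rfl
theorem zz : ∀ x : Z2, x + x = 0 := by decide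
theorem z01 : ∀ x : Z2, x = 0 ∨ x = 1 := by decide
theorem zeq : ∀ x y : Z2, x + y = 0 → x = y := by decide

instance : Group B := Group.ofLeftAxioms
  (fun a b c => B.ext (funext fun i => by simp [add_assoc]) (mul_assoc _ _ _))
  (fun a => B.ext (funext fun i => by simp) (one_mul _))
  (fun a => B.ext (funext fun i => by simp [zz]) (inv_mul_cancel _))

def eqB : B ≃ (I → Z2) × Perm I := ⟨fun a => (a.f, a.s), fun p => ⟨p.1, p.2⟩, fun _ => rfl, fun _ => rfl⟩
instance : Finite B := Finite.of_equiv _ eqB.symm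

def sB : B →* Perm I := ⟨⟨B.s, rfl⟩, fun _ _ => rfl⟩
theorem pow_s (a : B) (n : ℕ) : (a ^ n).s = a.s ^ n := map_pow sB a n
theorem zpow_s (a : B) (n : ℤ) : (a ^ n).s = a.s ^ n := map_zpow sB a n

def ee (f : I → Z2) : B := ⟨f, 1⟩
def dl (i : I) : I → Z2 := fun k => if k = i then 1 else 0
def e (i j : I) : B := ee fun k => dl i k + dl j k
def z0 : B := ee fun _ => 1
def bl (σ : Perm I) : B := ⟨fun _ => 0, σ⟩
def sw (i j : I) : B := bl (swap i j)
@[simp] theorem ee_f (f : I → Z2) : (ee f).f = f := rfl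
@[simp] theorem ee_s (f : I → Z2) : (ee f).s = 1 := rfl
@[simp] theorem e_f (i j k : I) : (e i j).f k = dl i k + dl j k := rfl
@[simp] theorem e_s (i j : I) : (e i j).s = 1 := rfl
@[simp] theorem z0_f (k : I) : z0.f k = 1 := rfl
@[simp] theorem z0_s : z0.s = 1 := rfl
@[simp] theorem bl_f (σ : Perm I) (k : I) : (bl σ).f k = 0 := rfl
@[simp] theorem bl_s (σ : Perm I) : (bl σ).s = σ := rfl
@[simp] theorem sw_f (i j k : I) : (sw i j).f k = 0 := rfl
@[simp] theorem sw_s (i j : I) : (sw i j).s = swap i j := rfl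
theorem sum_dl (i : I) : ∑ k, dl i k = 1 := by simp [dl]
theorem bl_mul (σ τ : Perm I) : bl (σ * τ) = bl σ * bl τ := B.ext (funext fun _ => by simp) rfl
theorem bl_one : bl 1 = 1 := rfl
theorem bl_inv (σ : Perm I) : bl σ⁻¹ = (bl σ)⁻¹ := rfl
theorem bl_ee (w : B) : bl w.s * ee w.f = w := B.ext (funext fun _ => by simp) (mul_one _)
theorem z0_comm (w : B) : w * z0 = z0 * w := B.ext (funext fun _ => by simp [add_comm]) (by simp)
theorem z0_sq : z0 * z0 = 1 := by decide
theorem z0_ne : z0 ≠ 1 := by decide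
theorem sq_of_s {w : B} (h : w.s = 1) : w * w = 1 := B.ext (funext fun _ => by simp [h, zz]) (by simp [h])
theorem comm_of_s {v w : B} (h : v.s = 1) (h' : w.s = 1) : v * w = w * v :=
  B.ext (funext fun _ => by simp [h, h', add_comm]) (by simp [h, h'])
theorem conj_e (c : B) (i j : I) : c * e i j * c⁻¹ = e (c.s i) (c.s j) :=
  B.ext (funext fun k => by
    simp only [mul_f, inv_f, inv_s, e_f, e_s, Perm.one_apply, dl, Perm.inv_eq_iff_eq]
    rw [add_comm _ (c.f _), ← add_assoc, zz, zero_add]) (by simp)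
theorem conj_sw (σ : Perm I) (i j : I) : bl σ * sw i j * (bl σ)⁻¹ = sw (σ i) (σ j) :=
  B.ext (funext fun k => by simp) (by simp [swap_apply_apply])
theorem e_mul : ∀ i j k : I, e i j * e j k = e i k := by decide +kernel
theorem e_symm : ∀ i j : I, e i j = e j i := by decide +kernel
theorem e_self : ∀ i : I, e i i = 1 := by decide +kernel
theorem sw_sq (i j : I) : sw i j * sw i j = 1 := B.ext (funext fun k => by simp) (by simp)
theorem e_inj : ∀ i j k l : I, i ≠ j → e i j = e k l → (i = k ∧ j = l) ∨ (i = l ∧ j = k) := by decide +kernel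

/-- the Weyl group of type `D₆` -/
def W : Subgroup B where
  carrier := {w | ∑ i, w.f i = 0}
  one_mem' := by simp
  mul_mem' {a b} ha hb := by
    simp only [Set.mem_ofPred_eq, mul_f, sum_add_distrib] at *
    rw [hb, Equiv.sum_comp b.s a.f, ha, add_zero]
  inv_mem' {a} ha := (Equiv.sum_comp a.s⁻¹ a.f).trans ha

/-- the even sign changes -/
def FB : Subgroup B := W ⊓ sB.ker
theorem mem_W {w : B} : w ∈ W ↔ ∑ i, w.f i = 0 := Iff.rfl
theorem mem_FB {w : B} : w ∈ FB ↔ w ∈ W ∧ w.s = 1 := Iff.rfl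
theorem sum_mul (a b : B) : ∑ i, (a * b).f i = ∑ i, a.f i + ∑ i, b.f i := by
  simp only [mul_f, sum_add_distrib]; rw [Equiv.sum_comp b.s a.f, add_comm]
instance : W.Normal := ⟨fun w hw c => by
  rw [mem_W, sum_mul, sum_mul, mem_W.1 hw, add_zero]
  exact (congrArg _ (Equiv.sum_comp c.s⁻¹ c.f)).trans (zz _)⟩
instance : FB.Normal := normal_inf_normal _ _
theorem bl_W (σ : Perm I) : bl σ ∈ W := by simp [mem_W]
theorem sw_W (i j : I) : sw i j ∈ W := bl_W _
theorem e_FB (i j : I) : e i j ∈ FB := ⟨by simp [W, sum_add_distrib, sum_dl, zz], rfl⟩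
theorem e_W (i j : I) : e i j ∈ W := (e_FB i j).1
theorem z0_FB : z0 ∈ FB := ⟨mem_W.2 (by decide), rfl⟩
theorem ee_FB {w : B} (h : w ∈ W) : ee w.f ∈ FB := ⟨h, rfl⟩

theorem FB_ind {K : Subgroup B} (h : ∀ j, e 0 j ∈ K) : FB ≤ K := fun w hw => by
  have key : ∀ s : Finset I, ee (fun k => ∑ j ∈ s, w.f j * (dl 0 k + dl j k)) ∈ K := fun s => by
    induction s using Finset.induction_on with
    | empty => exact K.one_mem
    | insert j s hj ih =>
      rcases z01 (w.f j) with z | z
      · simpa only [sum_insert hj, z, zero_mul, zero_add] using ih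
      · convert K.mul_mem ih (h j) using 1
        exact B.ext (funext fun k => by simp [sum_insert hj, z]) (by simp)
  convert key univ using 1
  refine B.ext (funext fun k => ?_) hw.2
  simp only [ee_f, mul_add, sum_add_distrib, ← Finset.sum_mul, mem_W.1 hw.1]
  simp [dl]

theorem W_ind {K : Subgroup B} (h : ∀ i j, i ≠ j → sw i j ∈ K) (h' : ∀ j, e 0 j ∈ K) : W ≤ K := fun w hw => by
  rw [← bl_ee w]
  refine K.mul_mem ?_ (FB_ind h' (ee_FB hw))
  induction w.s using Perm.swap_induction_on with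
  | one => exact K.one_mem
  | swap_mul σ i j ne ih => exact bl_mul _ _ ▸ K.mul_mem (h i j ne) ih

/-- the number of blocks not fixed pointwise -/
def wt (w : B) : ℕ := (univ.filter fun i => w.s i ≠ i ∨ w.f i ≠ 0).card

theorem mv_conj (c w : B) (i : I) :
    ((c * w * c⁻¹).s (c.s i) ≠ c.s i ∨ (c * w * c⁻¹).f (c.s i) ≠ 0) ↔ (w.s i ≠ i ∨ w.f i ≠ 0) := by
  by_cases h : w.s i = i
  · simp [h, add_comm (w.f i), ← add_assoc, zz]
  · simp [h]

theorem wt_conj (c w : B) : wt (c * w * c⁻¹) = wt w :=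
  (Finset.card_equiv c.s fun i => by rw [mem_filter, mem_filter, mv_conj]; simp).symm

theorem wt_z0 : wt z0 = 6 := by decide
theorem wt_one : wt 1 = 0 := by decide
theorem wt_e : ∀ i j : I, i ≠ j → wt (e i j) = 2 := by decide +kernel
theorem wt_sw : ∀ i j : I, i ≠ j → wt (sw i j) = 2 ∧ wt (sw i j * z0) = 6 := by decide +kernel
theorem wt_six {w : B} : wt w = 6 ↔ ∀ i, w.s i ≠ i ∨ w.f i ≠ 0 := by
  rw [wt]
  refine (Finset.card_eq_iff_eq_univ _).trans ?_
  simp [Finset.ext_iff]
theorem wt_zero {w : B} (h : wt w = 0) : w = 1 := by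
  simp only [wt, Finset.card_eq_zero, filter_eq_empty_iff, mem_univ, not_or, not_not, true_imp_iff] at h
  exact B.ext (funext fun i => (h (x := i)).2) (Equiv.ext fun i => (h (x := i)).1)

theorem wt_add (w : B) : wt w + wt (w * z0) = 6 + (univ.filter fun i => w.s i ≠ i).card := by
  simp only [wt, card_filter, ← sum_add_distrib]
  refine Eq.trans (b := ∑ i : I, (1 + if w.s i ≠ i then 1 else 0)) (sum_congr rfl fun i _ => ?_)
    (by rw [sum_add_distrib]; rfl)
  by_cases h : w.s i = i <;> rcases z01 (w.f i) with z | z <;> simp [h, z, zz]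

theorem wt_add_iff {w : B} : wt w + wt (w * z0) = 6 ↔ w.s = 1 := by
  rw [wt_add, Nat.add_eq_left, Finset.card_eq_zero, filter_eq_empty_iff]
  exact ⟨fun h => Equiv.ext fun i => not_not.1 (h (mem_univ i)), fun h i _ => by simp [h]⟩

theorem eq_z0 {w : B} (h : w.s = 1) (h6 : wt w = 6) : w = z0 :=
  B.ext (funext fun i => (z01 _).resolve_left ((wt_six.1 h6 i).resolve_left (by simp [h]))) h

theorem exists_e {w : B} (h : w.s = 1) (h2 : wt w = 2) : ∃ i j, i ≠ j ∧ w = e i j := by
  obtain ⟨i, j, ne, z⟩ := card_eq_two.1 h2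
  refine ⟨i, j, ne, B.ext (funext fun k => ?_) h⟩
  have := Finset.ext_iff.1 z k
  simp only [h, Perm.one_apply, ne_eq, not_true, false_or, mem_filter, mem_univ, true_and, mem_insert,
    Finset.mem_singleton] at this
  rcases z01 (w.f k) with y | y <;> simp only [y, not_true, false_iff, not_or, one_ne_zero, not_false_iff,
    true_iff] at this
  · simp [y, dl, this.1, this.2]
  · rcases this with rfl | rfl <;> simp [y, dl, ne, ne.symm]

theorem comm_e {w : B} {i j : I} (ne : i ≠ j) (h : w * e i j = e i j * w) : w.s i = i ∨ w.s i = j := by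
  rcases e_inj _ _ _ _ ne ((mul_inv_eq_of_eq_mul h).symm.trans (conj_e w i j)) with z | z
  exacts [Or.inl z.1.symm, Or.inr z.2.symm]

theorem i12 : ∀ i : I, i ≠ i + 1 ∧ i ≠ i + 2 ∧ i + 1 ≠ i + 2 := by decide

theorem cent_FB {w : B} (h : ∀ i j, w * e i j = e i j * w) : w.s = 1 := Equiv.ext fun i => by
  have a := comm_e (i12 i).1 (h i _)
  have b := comm_e (i12 i).2.1 (h i _)
  rcases a with a | a
  · exact a
  rcases b with b | b
  · exact b
  exact absurd (a.symm.trans b) (i12 i).2.2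

theorem refl_cases {w : B} {i j : I} (ne : i ≠ j) (h : w.s = swap i j) (h1 : w * w = 1) (h2 : wt w = 2) :
    w = sw i j ∨ w = sw i j * e i j := by
  have a : w.f i = w.f j := zeq _ _ (by simpa [h] using congrArg (fun b : B => b.f i) h1)
  have b : ∀ k, k ≠ i → k ≠ j → w.f k = 0 := fun k ki kj => by
    by_contra n
    have : ({i, j, k} : Finset I) ⊆ univ.filter fun i => w.s i ≠ i ∨ w.f i ≠ 0 := by
      simp [insert_subset_iff, h, ne, ne.symm, n]
    have := card_le_card this
    rw [card_eq_three.2 ⟨i, j, k, ne, ki.symm, kj.symm, rfl⟩] at this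
    exact absurd (this.trans h2.le) (by decide)
  rcases z01 (w.f i) with z | z
  · refine Or.inl (B.ext (funext fun k => ?_) h)
    by_cases ki : k = i
    · rw [ki, z]; rfl
    by_cases kj : k = j
    · rw [kj, ← a, z]; rfl
    exact b k ki kj
  · refine Or.inr (B.ext (funext fun k => ?_) (by simp [h]))
    by_cases ki : k = i
    · simp [ki, z, dl, ne]
    by_cases kj : k = j
    · simp [kj, ← a, z, dl, ne.symm]
    simp [b k ki kj, dl, ki, kj]

end H24.T12
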